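import Cfsg.Agent.H75.Main
import Cfsg.Agent.H80.Tower
import Cfsg.Agent.H80.U6

/-! Fischer's theorem for simple groups (from `JobC`). -/

set_option autoImplicit false

namespace H75

open Cfsg Subgroup

universe u

theorem S0480_cond (hC : JobC.{u}) {G : Type u} [Group G] [Finite G] [IsSimpleGroup G] (hna : ∃ x y : G, x * y ≠ y * x) {D : Set G} (hD : Cfsg.IsThreeTranspositionClass D) : (∃ n : ℕ, Nonempty (G ≃* Matrix.symplecticGroup (Fin n) (ZMod 2))) ∨ (∃ (F : Type) (_ : Field F) (_ : Fintype F) (n : ℕ), Fintype.card F = 4 ∧ Nonempty (G ≃* Cfsg.PSU n F 2)) ∨ (∃ m : ℕ, Nonempty (G ≃* Cfsg.POmega (ZMod 3) (Cfsg.quadFormOdd m (ZMod 3)))) ∨ Cfsg.IsFi22 G ∨ Cfsg.IsFi23 G := by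
  have hc : ¬ IsMulCommutative G := fun _ => by
    obtain ⟨x, y, h⟩ := hna
    exact h (mul_comm' x y)
  have hG := class_group hD
  have hp : commutator G = ⊤ := (H14.quasi_of_simple hc).1.commutator_eq_top
  have hZ : center G = ⊥ := (IsSimpleGroup.eq_bot_or_eq_top_of_normal _ inferInstance).resolve_right
    fun e => hc (center_eq_top_iff.1 e)
  obtain ⟨h1, h2⟩ := prim_of_simple_commutator hD (hp ▸ topEquiv.isSimpleGroup) fun k => hc (by
    rw [hp] at k; exact ⟨⟨fun a b => congrArg Subtype.val (mul_comm' (⟨a, mem_top a⟩ : (⊤ : Subgroup G))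
      ⟨b, mem_top b⟩)⟩⟩)
  rcases main_of hC G D (rank3_of_prim hG h1 h2) with k | ⟨n, hn, k⟩ | ⟨n, hn, k⟩ | ⟨n, hn, k⟩ |
    ⟨n, hn, k⟩ | ⟨n, δ, hn, k⟩ | k | k | k
  · exact absurd hp (commutator_ne_top_of_perm (by norm_num) (convSym hG hZ (by norm_num) k).choose)
  · obtain ⟨m, -, e, -⟩ := H95.convSp G D hG hZ n (by omega) k
    exact .inl ⟨m, ⟨e⟩⟩
  · exact .inr (.inl ⟨F4, _, _, n, H55.card_F4, ⟨(H39.convU G D hG hZ n hn k).choose⟩⟩)
  · exact absurd hp (commutator_ne_top_of_perm (by omega) (convSym hG hZ (by omega) k).choose)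
  · exact absurd hp (H95.jobO2Par G D hG hZ n hn k)
  · exact .inr (.inr (.inl (H95.convO3Perf G D hG hZ hp n δ hn k)))
  · exact .inr (.inr (.inr (.inl ⟨‹_›,
      (H80.a22 G D hG (H94.isOfTypeM22_of_isF22 hZ k)).choose_spec.card⟩)))
  · exact .inr (.inr (.inr (.inr ⟨‹_›,
      (H80.a23 G D hG (H94.isOfTypeM23_of_isF23 hZ k)).choose_spec.card⟩)))
  · have := (H80.a24 G D hG h1 (H94.isOfTypeM24_of_isF24 hZ k)).choose_spec.comm24.1
    simp [hp] at this

end H75
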