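/- The 4371-dimensional representation of the Baby Monster (row S5587): weight spaces. -/
import Cfsg.Agent.Base

set_option autoImplicit false
set_option linter.unusedSectionVars false

namespace H75.BR

open Module

/-- the sign of a parity -/
def sg (F : Type*) [Field F] (a : ZMod 2) : F := if a = 0 then 1 else -1

variable {F : Type*} [Field F] {G : Type*} [Group G] {V V' : Type*} [AddCommGroup V] [Module F V]
  [AddCommGroup V'] [Module F V']

@[simp] theorem sg_zero : sg F 0 = 1 := rfl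
@[simp] theorem sg_one : sg F 1 = -1 := if_neg (by decide)
theorem z2c (a : ZMod 2) : a = 0 ∨ a = 1 := by revert a; decide
theorem sg_add (a b : ZMod 2) : sg F (a + b) = sg F a * sg F b := by
  rcases z2c a with rfl | rfl <;> rcases z2c b with rfl | rfl <;>
    simp [show (1 : ZMod 2) + 1 = 0 from rfl]
theorem sg_mul_self (a : ZMod 2) : sg F a * sg F a = 1 := by rcases z2c a with rfl | rfl <;> simp
theorem sg_ne (a : ZMod 2) : sg F a ≠ 0 := left_ne_zero_of_mul_eq_one (sg_mul_self a)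
theorem sg_of_ne {a b : ZMod 2} (h : a ≠ b) : sg F a = -sg F b := by
  rcases z2c a with rfl | rfl <;> rcases z2c b with rfl | rfl <;> simp at h ⊢
theorem eq_zero_of_neg (h2 : (2 : F) ≠ 0) {x : V} (h : x = -x) : x = 0 :=
  (smul_eq_zero.1 (show (2 : F) • x = 0 by rw [two_smul]; exact eq_neg_iff_add_eq_zero.1 h)).resolve_left h2
theorem sg_inj (h2 : (2 : F) ≠ 0) {a b : ZMod 2} {x : V} (hx : x ≠ 0) (h : sg F a • x = sg F b • x) :
    a = b := by
  by_contra e
  rw [sg_of_ne e, neg_smul] at h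
  exact smul_ne_zero (sg_ne b) hx (eq_zero_of_neg h2 h.symm)

theorem am (σ : Representation F G V) (a b : G) (x : V) : σ (a * b) x = σ a (σ b x) := by
  rw [map_mul]; rfl
theorem inv_ap (σ : Representation F G V) (a : G) (x : V) : σ a⁻¹ (σ a x) = x := by
  rw [← am, inv_mul_cancel, map_one]; rfl
theorem ap_inv (σ : Representation F G V) (a : G) (x : V) : σ a (σ a⁻¹ x) = x := by
  rw [← am, mul_inv_cancel, map_one]; rfl
theorem ap_ne (σ : Representation F G V) (a : G) {x : V} (h : x ≠ 0) : σ a x ≠ 0 := fun e =>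
  h (by rw [← inv_ap σ a x, e, map_zero])
theorem ap_cj (σ : Representation F G V) (g a : G) (x : V) : σ (g * a * g⁻¹) (σ g x) = σ g (σ a x) := by
  rw [am, inv_ap, am]

/-- the weight space of `χ` for the set `A` -/
def Wt (σ : Representation F G V) (A : Set G) (χ : G → ZMod 2) : Submodule F V where
  carrier := {x | ∀ a ∈ A, σ a x = sg F (χ a) • x}
  add_mem' hx hy a ha := by rw [map_add, hx a ha, hy a ha, smul_add]
  zero_mem' a _ := by simp
  smul_mem' c x hx a ha := by rw [map_smul, hx a ha, smul_comm]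

/-- `f` commutes with the elements of `A` on `U` -/
def Itw (σ : Representation F G V) (σ' : Representation F G V') (A : Set G) (U : Submodule F V)
    (f : V →ₗ[F] V') : Prop := ∀ a ∈ A, ∀ x ∈ U, f (σ a x) = σ' a (f x)

variable {σ : Representation F G V} {σ' : Representation F G V'} {A : Set G} {χ ψ : G → ZMod 2}

theorem mem_Wt {x : V} : x ∈ Wt σ A χ ↔ ∀ a ∈ A, σ a x = sg F (χ a) • x := Iff.rfl
theorem Wt_congr (h : ∀ a ∈ A, χ a = ψ a) : Wt σ A χ = Wt σ A ψ :=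
  Submodule.ext fun _ => forall₂_congr fun a ha => by rw [h a ha]
theorem Wt_anti {B : Set G} (h : B ⊆ A) : Wt σ A χ ≤ Wt σ B χ := fun _ hx a ha => hx a (h ha)
theorem Wt_inv {a : G} (ha : a ∈ A) {x : V} (hx : x ∈ Wt σ A χ) : σ a x ∈ Wt σ A χ :=
  hx a ha ▸ Submodule.smul_mem _ _ hx
/-- transport of weight vectors -/
theorem Wt_cj {B : Set G} (g : G) (h : ∀ b ∈ B, g⁻¹ * b * g ∈ A ∧ ψ b = χ (g⁻¹ * b * g)) {x : V}
    (hx : x ∈ Wt σ A χ) : σ g x ∈ Wt σ B ψ := fun b hb => by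
  rw [← map_smul, (h b hb).2, ← hx _ (h b hb).1, am, am, ap_inv]
theorem Wt_add (h2 : (2 : F) ≠ 0) {x : V} (h0 : x ≠ 0) (hx : x ∈ Wt σ A χ) {a b : G} (ha : a ∈ A)
    (hb : b ∈ A) (hab : a * b ∈ A) : χ (a * b) = χ a + χ b :=
  sg_inj h2 h0 (by rw [← hx _ hab, am, hx b hb, map_smul, hx a ha, smul_smul, sg_add, mul_comm])
theorem Wt_eq (h2 : (2 : F) ≠ 0) {x : V} (h0 : x ≠ 0) (hx : x ∈ Wt σ A χ) {B : Set G}
    (hx' : x ∈ Wt σ B ψ) {a : G} (ha : a ∈ A) (hb : a ∈ B) : χ a = ψ a :=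
  sg_inj h2 h0 (by rw [← hx a ha, hx' a hb])
theorem Itw.mem_Wt {U : Submodule F V} {f : V →ₗ[F] V'} {B : Set G} (h : Itw σ σ' B U f) (hA : A ⊆ B)
    {x : V} (hU : x ∈ U) (hx : x ∈ Wt σ A χ) : f x ∈ Wt σ' A χ := fun a ha => by
  rw [← h a (hA ha) x hU, hx a ha, map_smul]

/-- simultaneous diagonalisation of commuting involutions, as an induction principle -/
theorem Wt_ind (h2 : (2 : F) ≠ 0) (hA : A.Finite) {U : Submodule F V}
    (inv : ∀ a ∈ A, ∀ x ∈ U, σ a x ∈ U) (sq : ∀ a ∈ A, ∀ x ∈ U, σ a (σ a x) = x)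
    (cm : ∀ a ∈ A, ∀ b ∈ A, ∀ x ∈ U, σ a (σ b x) = σ b (σ a x)) {P : V → Prop} (h0 : P 0)
    (hadd : ∀ x y, P x → P y → P (x + y)) (hW : ∀ χ, ∀ x ∈ U, x ≠ 0 → x ∈ Wt σ A χ → P x) :
    ∀ x ∈ U, P x := by
  classical
  induction A, hA using Set.Finite.induction_on generalizing U with
  | empty => exact fun x hx => (eq_or_ne x 0).elim (· ▸ h0) fun e => hW 0 x hx e fun _ h => h.elim
  | @insert a A _ _ ih =>
    have key : ∀ e : ZMod 2, ∀ x ∈ U ⊓ Wt σ {a} (fun _ => e), P x := fun e =>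
      ih (fun b hb x hx => ⟨inv b (.inr hb) x hx.1, fun c hc => by
          rw [show c = a from hc, cm a (.inl rfl) b (.inr hb) x hx.1, hx.2 a rfl, map_smul]⟩)
        (fun b hb x hx => sq b (.inr hb) x hx.1) (fun b hb c hc x hx => cm b (.inr hb) c (.inr hc) x hx.1)
        fun χ x hx n hχ => hW (Function.update χ a e) x hx.1 n fun b hb => by
          by_cases k : b = a
          · rw [k, Function.update_self]; exact hx.2 a rfl
          · rw [Function.update_of_ne k]; exact hχ b (hb.resolve_left k)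
    intro x hx
    have ha := inv a (.inl rfl) x hx
    have e : x = (2 : F)⁻¹ • (x + σ a x) + (2 : F)⁻¹ • (x - σ a x) := by
      rw [← smul_add, add_add_sub_cancel, ← two_smul F, smul_smul, inv_mul_cancel₀ h2, one_smul]
    rw [e]
    refine hadd _ _ (key 0 _ (Submodule.smul_mem _ _ ⟨add_mem hx ha, fun c hc => ?_⟩))
      (key 1 _ (Submodule.smul_mem _ _ ⟨sub_mem hx ha, fun c hc => ?_⟩))
    · rw [show c = a from hc, map_add, sq a (.inl rfl) x hx, sg_zero, one_smul, add_comm]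
    · rw [show c = a from hc, map_sub, sq a (.inl rfl) x hx, sg_one, neg_smul, one_smul, neg_sub]

theorem exists_Wt (h2 : (2 : F) ≠ 0) (hA : A.Finite) {U : Submodule F V} (hU : U ≠ ⊥)
    (inv : ∀ a ∈ A, ∀ x ∈ U, σ a x ∈ U) (sq : ∀ a ∈ A, ∀ x ∈ U, σ a (σ a x) = x)
    (cm : ∀ a ∈ A, ∀ b ∈ A, ∀ x ∈ U, σ a (σ b x) = σ b (σ a x)) :
    ∃ χ, ∃ x ∈ U, x ≠ 0 ∧ x ∈ Wt σ A χ := by
  by_contra! h
  exact hU ((Submodule.eq_bot_iff _).2 (Wt_ind h2 hA inv sq cm (P := (· = 0)) rfl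
    (fun x y a b => by rw [a, b, add_zero]) fun χ x hx n hχ => (h χ x hx n hχ).elim))

/-- weight spaces of different weights are independent -/
theorem Wt_disj (h2 : (2 : F) ≠ 0) {ι : Type*} (s : Finset ι) (χ : ι → G → ZMod 2)
    (h : ∀ j ∈ s, ∃ a ∈ A, ψ a ≠ χ j a) {x : V} (hx : x ∈ Wt σ A ψ)
    (hs : x ∈ ⨆ j ∈ s, Wt σ A (χ j)) : x = 0 := by
  classical
  induction s using Finset.induction_on generalizing x with
  | empty => simpa using hs
  | insert j s _ ih =>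
    rw [Finset.iSup_insert] at hs
    obtain ⟨y, hy, w, hw, e⟩ := Submodule.mem_sup.1 hs
    obtain ⟨a, ha, n⟩ := h j (Finset.mem_insert_self _ _)
    have k : (⨆ j ∈ s, Wt σ A (χ j)) ≤ (⨆ j ∈ s, Wt σ A (χ j)).comap (σ a) :=
      iSup₂_le fun i hi v hv => Submodule.mem_comap.2
        (Submodule.mem_iSup_of_mem i (Submodule.mem_iSup_of_mem hi (Wt_inv ha hv)))
    have e2 : σ a x - sg F (χ j a) • x = σ a w - sg F (χ j a) • w := by
      rw [← e, map_add, hy a ha, smul_add]; abel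
    have := ih (fun i hi => h i (Finset.mem_insert_of_mem hi))
      (sub_mem (Wt_inv ha hx) (Submodule.smul_mem _ _ hx))
      (by rw [e2]; exact sub_mem (k hw) (Submodule.smul_mem _ _ hw))
    rw [hx a ha, sub_eq_zero] at this
    by_contra k
    exact n (sg_inj h2 k this)

theorem finrank_iSup (h2 : (2 : F) ≠ 0) [FiniteDimensional F V] {ι : Type*} (s : Finset ι)
    (χ : ι → G → ZMod 2) (h : ∀ i ∈ s, ∀ j ∈ s, (∀ a ∈ A, χ i a = χ j a) → i = j)
    (S : ι → Submodule F V) (hS : ∀ i ∈ s, S i ≤ Wt σ A (χ i)) :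
    finrank F (⨆ i ∈ s, S i : Submodule F V) = ∑ i ∈ s, finrank F (S i) := by
  classical
  induction s using Finset.induction_on with
  | empty => simp
  | insert j s hj ih =>
    have m : ∀ {i}, i ∈ s → i ∈ insert j s := Finset.mem_insert_of_mem
    have m0 := Finset.mem_insert_self j s
    have d : S j ⊓ ⨆ i ∈ s, S i = ⊥ := (Submodule.eq_bot_iff _).2 fun x hx =>
      Wt_disj h2 s χ (fun i hi => by
        by_contra! k
        exact hj (h j m0 i (m hi) k ▸ hi)) (hS j m0 hx.1)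
        (iSup₂_mono (fun i hi => hS i (m hi)) hx.2)
    rw [Finset.iSup_insert, Finset.sum_insert hj,
      ← ih (fun a ha b hb => h a (m ha) b (m hb)) fun i hi => hS i (m hi),
      ← Submodule.finrank_sup_add_finrank_inf_eq, d, finrank_bot, add_zero]

theorem sum_finrank_le (h2 : (2 : F) ≠ 0) [FiniteDimensional F V] {ι : Type*} (s : Finset ι)
    (χ : ι → G → ZMod 2) (h : ∀ i ∈ s, ∀ j ∈ s, (∀ a ∈ A, χ i a = χ j a) → i = j)
    (S : ι → Submodule F V) (hS : ∀ i ∈ s, S i ≤ Wt σ A (χ i)) {U : Submodule F V}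
    (hU : ∀ i ∈ s, S i ≤ U) : ∑ i ∈ s, finrank F (S i) ≤ finrank F U :=
  finrank_iSup h2 s χ h S hS ▸ Submodule.finrank_mono (iSup₂_le hU)

theorem card_le_finrank (h2 : (2 : F) ≠ 0) [FiniteDimensional F V] {ι : Type*} (s : Finset ι)
    (χ : ι → G → ZMod 2) (h : ∀ i ∈ s, ∀ j ∈ s, (∀ a ∈ A, χ i a = χ j a) → i = j)
    {U : Submodule F V} (hU : ∀ i ∈ s, ∃ x ∈ U, x ≠ 0 ∧ x ∈ Wt σ A (χ i)) : s.card ≤ finrank F U := by
  refine le_trans ?_ (sum_finrank_le h2 s χ h (fun i => U ⊓ Wt σ A (χ i)) (fun _ _ => inf_le_right)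
    fun _ _ => inf_le_left)
  rw [Finset.card_eq_sum_ones]
  refine Finset.sum_le_sum fun i hi => Nat.one_le_iff_ne_zero.2 fun e => ?_
  obtain ⟨x, a, b, c⟩ := hU i hi
  exact b ((Submodule.eq_bot_iff _).1 (Submodule.finrank_eq_zero.1 e) x ⟨a, c⟩)

theorem finrank_iSup_le [FiniteDimensional F V] {ι : Type*} (s : Finset ι) (S : ι → Submodule F V) :
    finrank F (⨆ i ∈ s, S i : Submodule F V) ≤ ∑ i ∈ s, finrank F (S i) := by
  classical
  induction s using Finset.induction_on with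
  | empty => simp
  | insert j s hj ih =>
    rw [Finset.iSup_insert, Finset.sum_insert hj]
    exact (Submodule.finrank_add_le_finrank_add_finrank _ _).trans (by omega)

theorem finrank_le_of_ap [FiniteDimensional F V] (g : G) {S T : Submodule F V}
    (h : ∀ x ∈ S, σ g x ∈ T) : finrank F S ≤ finrank F T :=
  LinearMap.finrank_le_finrank_of_injective (f := (σ g).restrict h) fun x y e =>
    Subtype.ext (by rw [← inv_ap σ g x, ← inv_ap σ g y]; exact congrArg _ (congrArg Subtype.val e))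

/-- on a line every vector is a multiple of a non-zero one -/
theorem ex_smul {S : Submodule F V} (h : finrank F S = 1) {x y : V} (hx : x ∈ S) (h0 : x ≠ 0)
    (hy : y ∈ S) : ∃ c : F, y = c • x :=
  let ⟨c, e⟩ := (finrank_eq_one_iff_of_nonzero' (⟨x, hx⟩ : S) fun e => h0 (congrArg Subtype.val e)).1 h ⟨y, hy⟩
  ⟨c, (congrArg Subtype.val e).symm⟩

theorem ex_ne {S : Submodule F V} (h : finrank F S = 1) : ∃ x ∈ S, x ≠ 0 :=
  Submodule.exists_mem_ne_zero_of_ne_bot fun e => by rw [e, finrank_bot] at h; exact zero_ne_one h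

/-- two intertwiners which are proportional at `x` are proportional on the orbit of `x` -/
theorem Itw.uni {f g : V →ₗ[F] V'} {U : Submodule F V} (hf : Itw σ σ' A U f) (hg : Itw σ σ' A U g)
    {x : V} (hx : x ∈ U) {d : F} (e : g x = d • f x) {y : V}
    (hy : y ∈ Submodule.span F {y | ∃ a ∈ A, y = σ a x}) : g y = d • f y :=
  (Submodule.span_le.2 (by
    rintro _ ⟨a, ha, rfl⟩
    show g _ = (d • f) _
    rw [LinearMap.smul_apply, hf a ha x hx, hg a ha x hx, e, map_smul]) :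
      _ ≤ LinearMap.eqLocus g (d • f)) hy

/-- The norm map from `K` to `C`: `φ` is killed on `σ c x` for `c` in `C` outside `K`. -/
theorem exists_norm [Finite G] {K C : Subgroup G} (hK : K ≤ C) {φ : V →ₗ[F] V'}
    (h : Itw σ σ' K ⊤ φ) : ∃ f : V →ₗ[F] V', Itw σ σ' C ⊤ f ∧
      (∀ x, (∀ c ∈ C, c ∉ K → φ (σ c x) = 0) → f x = φ x) ∧
      ∀ x, (∀ c ∈ C, φ (σ c x) = 0) → f x = 0 := by
  classical
  let K' := K.subgroupOf C
  have := Fintype.ofFinite (C ⧸ K')
  let T : C → V →ₗ[F] V' := fun c => σ' c ∘ₗ φ ∘ₗ σ (c : G)⁻¹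
  have hT : ∀ c d : C, (c : C ⧸ K') = d → T c = T d := fun c d e => LinearMap.ext fun x => by
    have k : (c : G)⁻¹ * d ∈ K := (QuotientGroup.eq (s := K')).1 e
    show σ' c (φ (σ (c : G)⁻¹ x)) = σ' d (φ (σ (d : G)⁻¹ x))
    rw [show (c : G)⁻¹ = (c : G)⁻¹ * d * (d : G)⁻¹ by group, am σ _ (d : G)⁻¹, h _ k _ trivial, ← am,
      mul_inv_cancel_left]
  refine ⟨∑ q : C ⧸ K', T q.out, fun a ha x _ => ?_, fun x hx => ?_, fun x hx => ?_⟩
  · rw [LinearMap.sum_apply, LinearMap.sum_apply, map_sum,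
      ← Equiv.sum_comp (MulAction.toPerm (⟨a, ha⟩ : C))]
    refine Finset.sum_congr rfl fun q _ => ?_
    rw [hT _ (⟨a, ha⟩ * q.out) (by
      rw [QuotientGroup.out_eq', ← smul_eq_mul, ← MulAction.Quotient.smul_mk, QuotientGroup.out_eq']; rfl)]
    show σ' (a * q.out) (φ (σ (a * q.out : G)⁻¹ (σ a x))) = σ' a (σ' q.out (φ (σ (q.out : G)⁻¹ x)))
    rw [am, mul_inv_rev, am, inv_ap]
  · rw [LinearMap.sum_apply, Finset.sum_eq_single ((1 : C) : C ⧸ K') (fun q _ n => ?_) (by simp),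
      hT _ 1 (QuotientGroup.out_eq' _)]
    · simp [T]
    · show σ' _ (φ _) = 0
      rw [hx _ (inv_mem q.out.2) fun k => n ?_, map_zero]
      rw [← QuotientGroup.out_eq' q]
      exact QuotientGroup.eq.2 (by simpa [K', Subgroup.mem_subgroupOf] using k)
  · rw [LinearMap.sum_apply]
    refine Finset.sum_eq_zero fun q _ => ?_
    show σ' _ (φ _) = 0
    rw [hx _ (inv_mem q.out.2), map_zero]

/-- a linear map with given values on a subspace which kills a complement -/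
theorem exists_ext {S T : Submodule F V} (h : S ⊓ T = ⊥) (φ : V →ₗ[F] V') :
    ∃ f : V →ₗ[F] V', (∀ x ∈ S, f x = φ x) ∧ ∀ x ∈ T, f x = 0 := by
  obtain ⟨T', a, b⟩ := (disjoint_iff.2 h).symm.exists_isCompl
  exact ⟨LinearMap.ofIsCompl b.symm (φ ∘ₗ S.subtype) 0,
    fun x hx => LinearMap.ofIsCompl_apply_left b.symm ⟨x, hx⟩,
    fun x hx => LinearMap.ofIsCompl_apply_right b.symm ⟨x, a hx⟩⟩

theorem exists_map {x : V} (h : x ≠ 0) (x' : V') : ∃ φ : V →ₗ[F] V', φ x = x' :=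
  let ⟨l, e⟩ := Module.Projective.exists_dual_eq_one F h
  ⟨l.smulRight x', by simp [e]⟩

end H75.BR
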